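import Mathlib.GroupTheory.GroupAction.Jordan
import Mathlib.GroupTheory.SpecificGroups.Alternating
import Mathlib.GroupTheory.PGroup
import Mathlib.GroupTheory.Index

/-!
# Hall subgroups of alternating groups: every one extends to the symmetric group

`M` is a subgroup of even permutations, a Hall `π`-subgroup of the alternating group, with
`2 ∈ π`. We build a `π`-subgroup of the symmetric group above `M` with an odd element.
-/

set_option autoImplicit false

open scoped Pointwise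
open Equiv Equiv.Perm

namespace CfsgLib.HallAlt

variable {α : Type*} [Fintype α] [DecidableEq α]

/-- every prime divisor of the order lies in `π` -/
def PiOrd (π : Set ℕ) {G : Type*} [Group G] (H : Subgroup G) : Prop :=
  ∀ p : ℕ, p.Prime → p ∣ Nat.card H → p ∈ π

/-- A `p`-subgroup of `W` is conjugate in `W` into a subgroup of index prime to `p`. -/
theorem exists_conj_mem {G : Type*} [Group G] [Finite G] {p : ℕ} [Fact p.Prime]
    {M W T : Subgroup G} (hMW : M ≤ W) (hTW : T ≤ W) (hT : IsPGroup p T)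
    (hidx : ¬ p ∣ M.relIndex W) : ∃ w ∈ W, ∀ t ∈ T, w * t * w⁻¹ ∈ M := by
  classical
  let T' : Subgroup W := T.subgroupOf W
  let M' : Subgroup W := M.subgroupOf W
  have hT' : IsPGroup p T' := hT.comap_subtype
  have hcard : ¬ p ∣ Nat.card (W ⧸ M') := by
    simpa [M', Subgroup.relIndex, Subgroup.index] using hidx
  obtain ⟨x, hx⟩ := hT'.nonempty_fixed_point_of_prime_not_dvd_card (W ⧸ M') hcard
  obtain ⟨w, rfl⟩ := QuotientGroup.mk_surjective x
  refine ⟨(w : G)⁻¹, inv_mem w.2, fun t ht => ?_⟩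
  have h1 := hx ⟨⟨t, hTW ht⟩, ht⟩
  have h2 : (QuotientGroup.mk ((⟨t, hTW ht⟩ : W) * w) : W ⧸ M') = QuotientGroup.mk w := h1
  rw [eq_comm, QuotientGroup.eq] at h2
  simpa [M', Subgroup.mem_subgroupOf, mul_assoc] using h2

section Block

variable (M : Subgroup (Perm α)) (B : Set α)

/-- permutations acting on each translate of `B` like some element of `M`, trivial elsewhere -/
def local_ : Subgroup (Perm α) where
  carrier := {σ | (∀ x, (∀ g ∈ M, x ∉ g • B) → σ x = x) ∧
    ∀ g ∈ M, ∃ m ∈ M, ∀ b ∈ g • B, σ b = m b ∧ σ b ∈ g • B}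
  one_mem' := ⟨fun _ _ => rfl, fun g _ => ⟨1, one_mem M, fun b hb => ⟨rfl, hb⟩⟩⟩
  mul_mem' := by
    rintro σ τ ⟨hσ, hσ'⟩ ⟨hτ, hτ'⟩
    refine ⟨fun x hx => by simp [hτ x hx, hσ x hx], fun g hg => ?_⟩
    obtain ⟨m, hm, h1⟩ := hσ' g hg
    obtain ⟨m', hm', h2⟩ := hτ' g hg
    refine ⟨m * m', mul_mem hm hm', fun b hb => ?_⟩
    obtain ⟨e2, i2⟩ := h2 b hb
    obtain ⟨e1, i1⟩ := h1 (τ b) i2
    simp only [Perm.mul_apply]
    exact ⟨by rw [e1, e2], i1⟩
  inv_mem' := by
    rintro σ ⟨hσ, hσ'⟩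
    refine ⟨fun x hx => ?_, fun g hg => ?_⟩
    · exact Perm.inv_eq_iff_eq.mpr (hσ x hx).symm
    obtain ⟨m, hm, h1⟩ := hσ' g hg
    refine ⟨m⁻¹, inv_mem hm, fun b hb => ?_⟩
    have hsub : σ '' (g • B) ⊆ g • B := by
      rintro _ ⟨x, hx, rfl⟩; exact (h1 x hx).2
    have heq : σ '' (g • B) = g • B :=
      Set.eq_of_subset_of_ncard_le hsub (by rw [Set.ncard_image_of_injective _ σ.injective])
        (Set.toFinite _)
    obtain ⟨x, hx, rfl⟩ : b ∈ σ '' (g • B) := heq.symm ▸ hb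
    have hx' : σ⁻¹ (σ x) = x := by simp
    rw [hx']
    exact ⟨(Perm.inv_eq_iff_eq.mpr (h1 x hx).1).symm, hx⟩

omit [DecidableEq α] in
theorem le_normalizer_local : M ≤ Subgroup.normalizer (local_ M B : Set (Perm α)) := by
  intro k hk
  have key : ∀ k ∈ M, ∀ σ ∈ local_ M B, k * σ * k⁻¹ ∈ local_ M B := by
    rintro k hk σ ⟨hσ, hσ'⟩
    refine ⟨fun x hx => ?_, fun g hg => ?_⟩
    · have : σ (k⁻¹ x) = k⁻¹ x := hσ _ fun g hg hmem => hx (k * g) (mul_mem hk hg) (by
        rw [mul_smul]; exact ⟨k⁻¹ x, hmem, by simp⟩)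
      rw [Perm.mul_apply, Perm.mul_apply, this]
      exact k.apply_symm_apply x
    · obtain ⟨m, hm, h1⟩ := hσ' (k⁻¹ * g) (mul_mem (inv_mem hk) hg)
      refine ⟨k * m * k⁻¹, mul_mem (mul_mem hk hm) (inv_mem hk), fun b hb => ?_⟩
      have hb' : k⁻¹ b ∈ (k⁻¹ * g) • B := by
        rw [mul_smul]; exact ⟨b, hb, rfl⟩
      obtain ⟨e, i⟩ := h1 _ hb'
      refine ⟨by simp only [Perm.mul_apply]; rw [e], ?_⟩
      rw [mul_smul, Set.mem_smul_set_iff_inv_smul_mem, inv_inv] at i
      simpa using i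
  rw [Subgroup.mem_normalizer_iff]
  intro σ
  refine ⟨key k hk σ, fun h => ?_⟩
  have := key k⁻¹ (inv_mem hk) _ h
  simpa [mul_assoc] using this

omit [DecidableEq α] in
theorem piOrd_local {π : Set ℕ} (hπ : PiOrd π M) : PiOrd π (local_ M B) := by
  classical
  intro p hp hdvd
  haveI := Fact.mk hp
  obtain ⟨σ, hσ⟩ := exists_prime_orderOf_dvd_card' p hdvd
  refine hπ p hp ?_
  rw [← hσ, Subgroup.orderOf_coe σ |>.symm]
  apply orderOf_dvd_of_pow_eq_one
  obtain ⟨h1, h2⟩ := σ.2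
  ext x
  by_cases hx : ∀ g ∈ M, x ∉ g • B
  · rw [Perm.one_apply]
    exact Perm.pow_apply_eq_self_of_apply_eq_self (h1 x hx) _
  · push Not at hx
    obtain ⟨g, hg, hxg⟩ := hx
    obtain ⟨m, hm, h⟩ := h2 g hg
    have key : ∀ j : ℕ, ((σ : Perm α) ^ j) x = (m ^ j) x ∧ ((σ : Perm α) ^ j) x ∈ g • B := by
      intro j
      induction j with
      | zero => exact ⟨rfl, hxg⟩
      | succ j ih =>
        obtain ⟨e, i⟩ := h _ ih.2
        rw [pow_succ', pow_succ', Perm.mul_apply, Perm.mul_apply, ← ih.1]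
        exact ⟨e, i⟩
    have hm1 : m ^ Nat.card M = 1 := by
      have := congrArg Subtype.val (pow_card_eq_one' (x := (⟨m, hm⟩ : M)))
      exact this
    rw [(key _).1, hm1]

omit [Fintype α] [DecidableEq α] in
theorem mem_translates_of_stab {w : Perm α}
    (hw : w • (Set.range fun g : M => (g : Perm α) • B) =
      Set.range fun g : M => (g : Perm α) • B) : ∃ g ∈ M, w • B = g • B := by
  have h1 : w • B ∈ w • (Set.range fun g : M => (g : Perm α) • B) :=
    Set.smul_mem_smul_set ⟨1, by simp⟩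
  rw [hw] at h1
  obtain ⟨g, hg⟩ := h1
  exact ⟨g, g.2, hg.symm⟩

/-- the block lemma: an element of `M` which is a transposition on the block -/
theorem exists_doubleSwap_mem (hM : M ≤ alternatingGroup α)
    (hodd : ¬ 2 ∣ M.relIndex (alternatingGroup α))
    (hblk : ∀ g ∈ M, g • B = B ∨ Disjoint (g • B) B)
    {a b c d : α} (ha : a ∈ B) (hb : b ∈ B) (hc : c ∉ B) (hd : d ∉ B) (hab : a ≠ b) (hcd : c ≠ d)
    (hcd' : ∀ g ∈ M, (c ∈ g • B ↔ d ∈ g • B)) :
    ∃ a' b' c' d' : α, a' ∈ B ∧ b' ∈ B ∧ c' ∉ B ∧ d' ∉ B ∧ a' ≠ b' ∧ c' ≠ d' ∧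
      swap a' b' * swap c' d' ∈ M := by
  classical
  set 𝔅 : Set (Set α) := Set.range fun g : M => (g : Perm α) • B with h𝔅
  set t : Perm α := swap a b * swap c d with ht
  set W : Subgroup (Perm α) := alternatingGroup α ⊓ MulAction.stabilizer (Perm α) 𝔅 with hW
  have hMW : M ≤ W := fun m hm => ⟨hM hm, by
    show m • 𝔅 = 𝔅
    ext X
    constructor
    · rintro ⟨_, ⟨g, rfl⟩, rfl⟩
      exact ⟨⟨m, hm⟩ * g, by simp [mul_smul]⟩
    · rintro ⟨g, rfl⟩
      exact ⟨_, ⟨⟨m, hm⟩⁻¹ * g, rfl⟩, by simp [mul_smul]⟩⟩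
  have hfix : ∀ X ∈ 𝔅, t • X = X := by
    rintro _ ⟨⟨g, hg⟩, rfl⟩
    have hd2 : c ∈ g • B ↔ d ∈ g • B := hcd' g hg
    have hab2 : a ∈ g • B ↔ b ∈ g • B := by
      rcases hblk g hg with h | h
      · simp [h, ha, hb]
      · exact iff_of_false (fun e => Set.disjoint_left.mp h e ha)
          (fun e => Set.disjoint_left.mp h e hb)
    have hs : ∀ {u v : α}, (u ∈ g • B ↔ v ∈ g • B) → swap u v • (g • B) = g • B := by
      intro u v huv
      ext x
      rw [Set.mem_smul_set_iff_inv_smul_mem, swap_inv, Perm.smul_def, swap_apply_def]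
      split_ifs with h1 h2
      · subst h1; exact huv.symm
      · subst h2; exact huv
      · rfl
    show t • (g • B) = g • B
    rw [ht, mul_smul, hs hd2, hs hab2]
  have htW : t ∈ W := by
    refine ⟨?_, ?_⟩
    · show t ∈ alternatingGroup α
      rw [mem_alternatingGroup, ht, map_mul, sign_swap hab, sign_swap hcd]
      rfl
    · show t • 𝔅 = 𝔅
      ext X
      constructor
      · rintro ⟨Y, hY, rfl⟩
        show t • Y ∈ 𝔅
        rwa [hfix Y hY]
      · intro hX
        exact ⟨X, hX, hfix X hX⟩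
  have hdis : (swap a b).Disjoint (swap c d) := by
    intro x
    by_cases hx : x = a ∨ x = b
    · right
      rcases hx with rfl | rfl
      · exact swap_apply_of_ne_of_ne (fun e => hc (e ▸ ha)) (fun e => hd (e ▸ ha))
      · exact swap_apply_of_ne_of_ne (fun e => hc (e ▸ hb)) (fun e => hd (e ▸ hb))
    · push Not at hx
      exact Or.inl (swap_apply_of_ne_of_ne hx.1 hx.2)
  have htt : t ^ (2 : ℕ) = 1 := by
    rw [ht, hdis.commute.mul_pow]
    simp [pow_two]
  have hT : IsPGroup 2 (Subgroup.zpowers t) := by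
    rintro ⟨x, hx⟩
    obtain ⟨k, rfl⟩ := Subgroup.mem_zpowers_iff.mp hx
    refine ⟨1, Subtype.ext ?_⟩
    show (t ^ k) ^ (2 ^ 1) = 1
    rw [← zpow_natCast, ← zpow_mul, mul_comm, zpow_mul, zpow_natCast, pow_one, htt, one_zpow]
  obtain ⟨w, hw, hwt⟩ := exists_conj_mem (p := 2) hMW (by simpa using htW) hT
    (fun h => hodd (h.trans (Dvd.intro _ (Subgroup.relIndex_mul_relIndex M W _ hMW inf_le_left))))
  obtain ⟨g, hg, hgB⟩ := mem_translates_of_stab M B (w := w) hw.2
  set h : Perm α := g⁻¹ * w with hh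
  have hhB : h • B = B := by rw [hh, mul_smul, hgB, inv_smul_smul]
  have hmem : h * t * h⁻¹ ∈ M := by
    have := mul_mem (mul_mem (inv_mem hg) (hwt t (Subgroup.mem_zpowers t))) hg
    simpa [hh, mul_assoc] using this
  have hin : ∀ x, h x ∈ B ↔ x ∈ B := fun x => by
    conv_lhs => rw [← hhB]
    exact Set.smul_mem_smul_set_iff
  refine ⟨h a, h b, h c, h d, (hin a).2 ha, (hin b).2 hb, fun e => hc ((hin c).1 e),
    fun e => hd ((hin d).1 e), h.injective.ne hab, h.injective.ne hcd, ?_⟩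
  have : swap (h a) (h b) * swap (h c) (h d) = h * t * h⁻¹ := by
    rw [ht, swap_apply_apply, swap_apply_apply]
    simp [mul_assoc]
  rw [this]
  exact hmem

/-- Extension in the presence of a block. -/
theorem extend_of_block {π : Set ℕ} (hM : M ≤ alternatingGroup α) (hπ : PiOrd π M)
    (hodd : ¬ 2 ∣ M.relIndex (alternatingGroup α))
    (hblk : ∀ g ∈ M, g • B = B ∨ Disjoint (g • B) B)
    {a b c d : α} (ha : a ∈ B) (hb : b ∈ B) (hc : c ∉ B) (hd : d ∉ B) (hab : a ≠ b) (hcd : c ≠ d)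
    (hcd' : ∀ g ∈ M, (c ∈ g • B ↔ d ∈ g • B)) :
    ∃ M₀ : Subgroup (Perm α), M ≤ M₀ ∧ PiOrd π M₀ ∧ ∃ y ∈ M₀, sign y = -1 := by
  classical
  obtain ⟨a', b', c', d', ha', hb', hc', hd', hab', -, hm⟩ :=
    exists_doubleSwap_mem M B hM hodd hblk ha hb hc hd hab hcd hcd'
  set Q := local_ M B with hQdef
  refine ⟨M ⊔ Q, le_sup_left, ?_, swap a' b', Subgroup.mem_sup_right ?_, sign_swap hab'⟩
  · intro p hp hdvd
    haveI := Fact.mk hp
    have hle := le_normalizer_local M B
    obtain ⟨⟨x, hx⟩, hord⟩ := exists_prime_orderOf_dvd_card' p hdvd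
    rw [Subgroup.orderOf_mk] at hord
    rw [← SetLike.mem_coe, Subgroup.coe_mul_of_left_le_normalizer_right M Q hle] at hx
    obtain ⟨m, hm, q, hq, rfl⟩ := hx
    have key : ∀ j : ℕ, ∃ r ∈ Q, (m * q) ^ j = m ^ j * r := by
      intro j
      induction j with
      | zero => exact ⟨1, one_mem Q, by simp⟩
      | succ j ih =>
        obtain ⟨r, hr, e⟩ := ih
        have h' := (Subgroup.mem_normalizer_iff.mp (hle (inv_mem hm)) r).mp hr
        rw [inv_inv] at h'
        exact ⟨m⁻¹ * r * m * q, mul_mem h' hq, by rw [pow_succ, e, pow_succ]; group⟩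
    obtain ⟨r, hr, e⟩ := key (Nat.card M)
    have hm1 : m ^ Nat.card M = 1 := congrArg Subtype.val (pow_card_eq_one' (x := (⟨m, hm⟩ : M)))
    rw [hm1, one_mul] at e
    have hr1 : r ^ Nat.card Q = 1 := congrArg Subtype.val (pow_card_eq_one' (x := (⟨r, hr⟩ : Q)))
    have hdiv : p ∣ Nat.card M * Nat.card Q := by
      rw [← hord]
      apply orderOf_dvd_of_pow_eq_one
      rw [pow_mul, e, hr1]
    rcases hp.dvd_mul.mp hdiv with h | h
    · exact hπ p hp h
    · exact piOrd_local M B hπ p hp h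
  · refine ⟨fun x hx => ?_, fun g hg => ?_⟩
    · apply swap_apply_of_ne_of_ne
      · rintro rfl; exact hx 1 (one_mem M) (by simpa using ha')
      · rintro rfl; exact hx 1 (one_mem M) (by simpa using hb')
    · rcases hblk g hg with h | h
      · refine ⟨_, hm, fun x hx => ?_⟩
        rw [h] at hx ⊢
        have hcd2 : swap c' d' x = x :=
          swap_apply_of_ne_of_ne (fun e => hc' (e ▸ hx)) (fun e => hd' (e ▸ hx))
        refine ⟨by rw [Perm.mul_apply, hcd2], ?_⟩
        rw [swap_apply_def]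
        split_ifs
        · exact hb'
        · exact ha'
        · exact hx
      · refine ⟨1, one_mem M, fun x hx => ?_⟩
        have hx' : swap a' b' x = x := swap_apply_of_ne_of_ne
          (fun e => Set.disjoint_left.mp h hx (e ▸ ha'))
          (fun e => Set.disjoint_left.mp h hx (e ▸ hb'))
        rw [hx']
        exact ⟨rfl, hx⟩

end Block

end CfsgLib.HallAlt
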