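import Cfsg.Agent.HallAlt.Basic
import Mathlib.GroupTheory.GroupAction.Primitive

/-!
# Hall subgroups of alternating groups: the primitive case and the assembly
-/

set_option autoImplicit false

open scoped Pointwise
open Equiv Equiv.Perm

namespace CfsgLib.HallAlt

variable {α : Type*} [Fintype α] [DecidableEq α]

omit [DecidableEq α] in
theorem three_dvd_orderOf {P : Perm α} {u : α} (h : (P ^ 3) u = u) (h1 : P u ≠ u) :
    3 ∣ orderOf P := by
  by_contra hn
  have hN : (P ^ orderOf P) u = u := by rw [pow_orderOf_eq_one]; rfl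
  have h3 : ∀ j : ℕ, (P ^ (3 * j)) u = u := fun j => by
    rw [pow_mul]; exact Perm.pow_apply_eq_self_of_apply_eq_self h j
  have e : orderOf P = 3 * (orderOf P / 3) + orderOf P % 3 := (Nat.div_add_mod _ _).symm
  have hr : orderOf P % 3 = 1 ∨ orderOf P % 3 = 2 := by omega
  have hstep : ∀ j r : ℕ, (P ^ (3 * j + r)) u = (P ^ r) u := fun j r => by
    rw [add_comm, pow_add, Perm.mul_apply, h3]
  rw [e, hstep] at hN
  rcases hr with hr | hr <;> rw [hr] at hN
  · exact h1 (by simpa using hN)
  · apply h1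
    have h' : (P ^ 3) u = P ((P ^ 2) u) := by rw [pow_succ']; rfl
    rw [h', hN] at h
    exact h

theorem swap_mul_swap_moves {a b c d : α} (hac : a ≠ c) (had : a ≠ d) (hbc : b ≠ c) (hbd : b ≠ d) :
    (swap a b * swap c d) a = b ∧ (swap a b * swap c d) b = a ∧
    (swap a b * swap c d) c = d ∧ (swap a b * swap c d) d = c ∧
    ∀ x, x ≠ a → x ≠ b → x ≠ c → x ≠ d → (swap a b * swap c d) x = x := by
  refine ⟨?_, ?_, ?_, ?_, fun x h1 h2 h3 h4 => ?_⟩ <;> rw [Perm.mul_apply]
  · rw [swap_apply_of_ne_of_ne hac had, swap_apply_left]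
  · rw [swap_apply_of_ne_of_ne hbc hbd, swap_apply_right]
  · rw [swap_apply_left, swap_apply_of_ne_of_ne had.symm hbd.symm]
  · rw [swap_apply_right, swap_apply_of_ne_of_ne hac.symm hbc.symm]
  · rw [swap_apply_of_ne_of_ne h3 h4, swap_apply_of_ne_of_ne h1 h2]

/-- a conjugate of every four-group on four points lies in `M` -/
theorem exists_klein {M : Subgroup (Perm α)} (hM : M ≤ alternatingGroup α)
    (hodd : ¬ 2 ∣ M.relIndex (alternatingGroup α)) (h4 : 4 ≤ Fintype.card α) :
    ∃ a b c d : α, a ≠ b ∧ a ≠ c ∧ a ≠ d ∧ b ≠ c ∧ b ≠ d ∧ c ≠ d ∧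
      swap a b * swap c d ∈ M ∧ swap a c * swap b d ∈ M ∧ swap a d * swap b c ∈ M := by
  classical
  obtain ⟨e⟩ : Nonempty (Fin 4 ↪ α) := Function.Embedding.nonempty_of_card_le (by simpa using h4)
  obtain ⟨a, ha⟩ : ∃ a, e 0 = a := ⟨_, rfl⟩
  obtain ⟨b, hb⟩ : ∃ a, e 1 = a := ⟨_, rfl⟩
  obtain ⟨c, hc⟩ : ∃ a, e 2 = a := ⟨_, rfl⟩
  obtain ⟨d, hd⟩ : ∃ a, e 3 = a := ⟨_, rfl⟩
  have hab : a ≠ b := by rw [← ha, ← hb]; exact e.injective.ne (by decide)
  have hac : a ≠ c := by rw [← ha, ← hc]; exact e.injective.ne (by decide)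
  have had : a ≠ d := by rw [← ha, ← hd]; exact e.injective.ne (by decide)
  have hbc : b ≠ c := by rw [← hb, ← hc]; exact e.injective.ne (by decide)
  have hbd : b ≠ d := by rw [← hb, ← hd]; exact e.injective.ne (by decide)
  have hcd : c ≠ d := by rw [← hc, ← hd]; exact e.injective.ne (by decide)
  obtain ⟨p1, p2, p3, p4, p5⟩ := swap_mul_swap_moves (b := b) (d := d) hac had hbc hbd
  obtain ⟨q1, q2, q3, q4, q5⟩ :=
    swap_mul_swap_moves (b := c) (d := d) hab had hbc.symm hcd
  obtain ⟨r1, r2, r3, r4, r5⟩ :=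
    swap_mul_swap_moves (b := d) (d := c) hab hac hbd.symm hcd.symm
  set t := swap a b * swap c d with ht
  set s := swap a c * swap b d with hs
  set r := swap a d * swap b c with hr
  have hmul : t * s = r ∧ s * t = r ∧ t * t = 1 ∧ s * s = 1 := by
    refine ⟨?_, ?_, ?_, ?_⟩ <;> ext x <;> simp only [Perm.mul_apply, Perm.one_apply] <;>
      (by_cases h1 : x = a
       · subst h1; simp [p1, p2, p3, p4, q1, q2, q3, q4, r1, r2, r3, r4]
       by_cases h2 : x = b
       · subst h2; simp [p1, p2, p3, p4, q1, q2, q3, q4, r1, r2, r3, r4]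
       by_cases h3 : x = c
       · subst h3; simp [p1, p2, p3, p4, q1, q2, q3, q4, r1, r2, r3, r4]
       by_cases h4 : x = d
       · subst h4; simp [p1, p2, p3, p4, q1, q2, q3, q4, r1, r2, r3, r4]
       simp [p5 x h1 h2 h3 h4, q5 x h1 h3 h2 h4, r5 x h1 h4 h2 h3])
  have hpow : ∀ {x : Perm α}, x * x = 1 → IsPGroup 2 (Subgroup.zpowers x) := by
    rintro x hx ⟨y, hy⟩
    obtain ⟨k, rfl⟩ := Subgroup.mem_zpowers_iff.mp hy
    refine ⟨1, Subtype.ext ?_⟩
    show (x ^ k) ^ (2 ^ 1) = 1
    rw [← zpow_natCast, ← zpow_mul, mul_comm, zpow_mul, zpow_natCast, pow_one, pow_two, hx,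
      one_zpow]
  have hT : IsPGroup 2 (Subgroup.zpowers t ⊔ Subgroup.zpowers s : Subgroup (Perm α)) := by
    refine IsPGroup.to_sup_of_normal_right' (hpow hmul.2.2.1) (hpow hmul.2.2.2) ?_
    rw [Subgroup.zpowers_le, Subgroup.mem_normalizer_iff]
    intro y
    have hcomm : ∀ y ∈ Subgroup.zpowers s, t * y = y * t := by
      rintro _ ⟨k, rfl⟩
      exact ((show Commute t s from hmul.1.trans hmul.2.1.symm).zpow_right k).eq
    refine ⟨fun hy => by rw [hcomm y hy, mul_inv_cancel_right]; exact hy, fun hy => ?_⟩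
    have := hcomm _ hy
    have e3 : t * y * t⁻¹ = y := by
      have h' : t * (t * y * t⁻¹) = t * y := by rw [this]; group
      exact mul_left_cancel h'
    rwa [e3] at hy
  have hle : Subgroup.zpowers t ⊔ Subgroup.zpowers s ≤ alternatingGroup α := by
    rw [sup_le_iff, Subgroup.zpowers_le, Subgroup.zpowers_le, mem_alternatingGroup,
      mem_alternatingGroup, ht, hs, map_mul, map_mul, sign_swap hab, sign_swap hcd,
      sign_swap hac, sign_swap hbd]
    exact ⟨rfl, rfl⟩
  obtain ⟨w, -, hw⟩ := exists_conj_mem hM hle hT hodd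
  have h1 := hw t (Subgroup.mem_sup_left (Subgroup.mem_zpowers t))
  have h2 := hw s (Subgroup.mem_sup_right (Subgroup.mem_zpowers s))
  have h3 := hw r (hmul.1 ▸ mul_mem (Subgroup.mem_sup_left (Subgroup.mem_zpowers t))
    (Subgroup.mem_sup_right (Subgroup.mem_zpowers s)))
  have hconj : ∀ x y z v : α, swap (w x) (w y) * swap (w z) (w v) =
      w * (swap x y * swap z v) * w⁻¹ := fun x y z v => by
    rw [swap_apply_apply, swap_apply_apply]; group
  exact ⟨w a, w b, w c, w d, w.injective.ne hab, w.injective.ne hac, w.injective.ne had,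
    w.injective.ne hbc, w.injective.ne hbd, w.injective.ne hcd,
    by rw [hconj]; exact h1, by rw [hconj]; exact h2, by rw [hconj]; exact h3⟩

theorem exists_extension {π : Set ℕ} {M : Subgroup (Perm α)} (hM : M ≤ alternatingGroup α)
    (hπ : PiOrd π M)
    (hidx : ∀ p : ℕ, p.Prime → p ∈ π → ¬ p ∣ M.relIndex (alternatingGroup α))
    (h2 : 2 ∈ π) (h4 : 4 ≤ Fintype.card α) :
    ∃ M₀ : Subgroup (Perm α), M ≤ M₀ ∧ PiOrd π M₀ ∧ ∃ y ∈ M₀, sign y = -1 := by
  classical
  have hodd := hidx 2 Nat.prime_two h2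
  obtain ⟨a, b, c, d, hab, hac, had, hbc, hbd, hcd, m1, m2, m3⟩ := exists_klein hM hodd h4
  obtain ⟨p1, p2, p3, p4, p5⟩ := swap_mul_swap_moves (b := b) (d := d) hac had hbc hbd
  obtain ⟨q1, q2, q3, q4, q5⟩ :=
    swap_mul_swap_moves (b := c) (d := d) hab had hbc.symm hcd
  obtain ⟨r1, r2, r3, r4, r5⟩ :=
    swap_mul_swap_moves (b := d) (d := c) hab hac hbd.symm hcd.symm
  set O : Set α := MulAction.orbit M a with hO
  have hmemO : ∀ g ∈ M, g a ∈ O := fun g hg => ⟨⟨g, hg⟩, rfl⟩
  have haO : a ∈ O := MulAction.mem_orbit_self a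
  have hbO : b ∈ O := by have := hmemO _ m1; rwa [p1] at this
  have hcO : c ∈ O := by have := hmemO _ m2; rwa [q1] at this
  have hdO : d ∈ O := by have := hmemO _ m3; rwa [r1] at this
  have hOinv : ∀ g ∈ M, g • O = O := fun g hg =>
    MulAction.smul_orbit (⟨g, hg⟩ : M) a
  -- two points outside the orbit
  by_cases hout : ∃ x y, x ∉ O ∧ y ∉ O ∧ x ≠ y
  · obtain ⟨x, y, hx, hy, hxy⟩ := hout
    exact extend_of_block M O hM hπ hodd (fun g hg => Or.inl (hOinv g hg)) haO hbO hx hy hab hxy
      (fun g hg => by rw [hOinv g hg]; exact iff_of_false hx hy)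
  push Not at hout
  -- a block with several translates
  by_cases hblock : ∃ B : Set α, (∃ x y, x ∈ B ∧ y ∈ B ∧ x ≠ y) ∧
      (∀ g ∈ M, g • B = B ∨ Disjoint (g • B) B) ∧ ∃ g ∈ M, g • B ≠ B
  · obtain ⟨B, ⟨x, y, hx, hy, hxy⟩, hblk, g, hg, hgB⟩ := hblock
    have hdis : Disjoint (g • B) B := (hblk g hg).resolve_left hgB
    refine extend_of_block M B hM hπ hodd hblk hx hy (c := g x) (d := g y)
      (fun e => Set.disjoint_left.mp hdis (Set.smul_mem_smul_set hx) e)
      (fun e => Set.disjoint_left.mp hdis (Set.smul_mem_smul_set hy) e) hxy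
      (g.injective.ne hxy) ?_
    have key : ∀ z z', z ∈ B → z' ∈ B → ∀ g' ∈ M, g z ∈ g' • B → g z' ∈ g' • B := by
      intro z z' hz hz' g' hg' hmem
      have hmem2 : (g'⁻¹ * g) z ∈ B := by
        rw [Set.mem_smul_set_iff_inv_smul_mem] at hmem; exact hmem
      rcases hblk _ (mul_mem (inv_mem hg') hg) with h | h
      · rw [Set.mem_smul_set_iff_inv_smul_mem]
        have h' : (g'⁻¹ * g) z' ∈ (g'⁻¹ * g) • B := Set.smul_mem_smul_set hz'
        rw [h] at h'
        exact h'
      · exact absurd hmem2 (fun e => Set.disjoint_left.mp h (Set.smul_mem_smul_set hz) e)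
    exact fun g' hg' => ⟨key x y hx hy g' hg', key y x hy hx g' hg'⟩
  push Not at hblock
  have hprim : ∀ B : Set α, B ⊆ O → ∀ x y, x ∈ B → y ∈ B → x ≠ y →
      (∀ g ∈ M, g • B = B ∨ Disjoint (g • B) B) → B = O := by
    intro B hBO x y hx hy hxy hblk
    refine hBO.antisymm ?_
    rintro _ ⟨⟨g, hg⟩, rfl⟩
    obtain ⟨⟨k, hk⟩, hkx⟩ := hBO hx
    have hkx' : k a = x := hkx
    have h := hblock B ⟨x, y, hx, hy, hxy⟩ hblk (g * k⁻¹) (mul_mem hg (inv_mem hk))
    show g a ∈ B
    have h' : (g * k⁻¹) x ∈ (g * k⁻¹) • B := Set.smul_mem_smul_set hx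
    rw [h, Perm.mul_apply, ← hkx'] at h'
    simpa using h'
  have hfix : ∀ g ∈ M, ∀ x, x ∉ O → g x = x := by
    intro g hg x hx
    apply hout _ _ ?_ hx
    intro hgx
    apply hx
    have h' : g • x ∈ g • O := by rw [hOinv g hg]; exact hgx
    exact Set.smul_mem_smul_set_iff.mp h'
  by_cases h3 : 3 ∣ Nat.card M
  · -- a three cycle and Jordan
    haveI : Fact (Nat.Prime 3) := ⟨Nat.prime_three⟩
    set u : Perm α := swap a b * swap a c with hu
    have hu3 : u.IsThreeCycle := isThreeCycle_swap_mul_swap_same hab hac hbc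
    have hT : IsPGroup 3 (Subgroup.zpowers u) := IsPGroup.of_card (n := 1) (by
      rw [Nat.card_zpowers, hu3.orderOf, pow_one])
    obtain ⟨w, -, hw⟩ := exists_conj_mem hM
      (Subgroup.zpowers_le.2 hu3.mem_alternatingGroup) hT
      (hidx 3 Nat.prime_three (hπ 3 Nat.prime_three h3))
    set v : Perm α := w * u * w⁻¹ with hv
    have hvM : v ∈ M := hw u (Subgroup.mem_zpowers u)
    have hv3 : v.IsThreeCycle := by
      show v.cycleType = {3}
      rw [hv, cycleType_conj]; exact hu3
    let res : M →* Perm O :=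
      { toFun := fun g => MulAction.toPerm g
        map_one' := by ext; simp
        map_mul' := fun g h => by ext; simp [mul_smul] }
    have hres : ∀ (g : M) (z : O), ((res g) z : α) = (g : Perm α) z := fun g z => rfl
    haveI hpre : MulAction.IsPreprimitive res.range O := by
      haveI : MulAction.IsPretransitive res.range O := by
        refine ⟨fun z z' => ?_⟩
        obtain ⟨k, hk⟩ := MulAction.exists_smul_eq M z z'
        exact ⟨⟨res k, k, rfl⟩, hk⟩
      refine ⟨fun {B} hB => ?_⟩
      rw [MulAction.IsTrivialBlock]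
      by_cases hsub : B.Subsingleton
      · exact Or.inl hsub
      right
      rw [Set.not_subsingleton_iff] at hsub
      obtain ⟨x, hx, y, hy, hxy⟩ := hsub
      have key := hprim (Subtype.val '' B) (by rintro _ ⟨z, -, rfl⟩; exact z.2) x y
        ⟨x, hx, rfl⟩ ⟨y, hy, rfl⟩ (fun e => hxy (Subtype.ext e)) ?_
      · ext z
        simp only [Set.mem_univ, iff_true]
        have : (z : α) ∈ Subtype.val '' B := key.symm ▸ z.2
        obtain ⟨z', hz', e⟩ := this
        rwa [← Subtype.ext e]
      · intro g hg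
        have hblk := MulAction.isBlock_iff_smul_eq_or_disjoint.mp hB
          (⟨res ⟨g, hg⟩, ⟨g, hg⟩, rfl⟩ : res.range)
        set G : res.range := ⟨res ⟨g, hg⟩, ⟨g, hg⟩, rfl⟩ with hG
        have himg : Subtype.val '' (G • B) = g • (Subtype.val '' B) := by
          ext z
          constructor
          · rintro ⟨_, ⟨z', hz', rfl⟩, rfl⟩
            exact ⟨z', ⟨z', hz', rfl⟩, rfl⟩
          · rintro ⟨_, ⟨z', hz', rfl⟩, rfl⟩
            exact ⟨G • z', ⟨z', hz', rfl⟩, rfl⟩
        rcases hblk with h | h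
        · exact Or.inl (by rw [← himg, h])
        · exact Or.inr (by rw [← himg]; exact Set.disjoint_image_of_injective Subtype.val_injective h)
    have hv' : (res ⟨v, hvM⟩).IsThreeCycle := by
      have heq : res ⟨v, hvM⟩ = v.subtypePerm (p := (· ∈ O)) (fun z => by
          constructor
          · intro h
            by_contra hz; rw [hfix v hvM z hz] at h; exact hz h
          · intro h
            rw [← hOinv v hvM]; exact Set.smul_mem_smul_set h) := by
        ext z; rfl
      rw [← card_support_eq_three_iff, ← hv3.card_support]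
      refine Finset.card_bij (fun z _ => (z : α))
        (fun z hz => mem_support.mpr fun e => mem_support.mp hz (Subtype.ext e))
        (fun z _ z' _ e => Subtype.ext e) (fun z hz => ?_)
      refine ⟨⟨z, ?_⟩, mem_support.mpr fun e => mem_support.mp hz (congrArg Subtype.val e), rfl⟩
      by_contra hz'
      exact (mem_support.mp hz) (hfix v hvM z hz')
    have hJ := alternatingGroup_le_of_isPreprimitive_of_isThreeCycle_mem hpre hv'
      (⟨⟨v, hvM⟩, rfl⟩ : res ⟨v, hvM⟩ ∈ res.range)
    -- everything even supported on the orbit is in M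
    have hin : ∀ σ : Perm α, (∀ x, x ∉ O → σ x = x) → sign σ = 1 → σ ∈ M := by
      intro σ hσ hs
      have hσ' : ∀ z, σ z ∈ O ↔ z ∈ O := by
        intro z
        constructor
        · intro h; by_contra hz; rw [hσ z hz] at h; exact hz h
        · intro h; by_contra hz
          have := hσ _ hz
          exact hz (by rw [σ.injective this]; exact h)
      have h1 : σ.subtypePerm (p := (· ∈ O)) hσ' ∈ alternatingGroup O := by
        rw [mem_alternatingGroup, sign_subtypePerm σ hσ' (fun x hx => by
          by_contra h; exact hx (hσ x h)), hs]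
      obtain ⟨g, hg⟩ := hJ h1
      suffices (g : Perm α) = σ from this ▸ g.2
      ext x
      by_cases hx : x ∈ O
      · have h' := congrArg Subtype.val (Perm.congr_fun hg ⟨x, hx⟩)
        exact h'
      · rw [hfix g g.2 x hx, hσ x hx]
    refine ⟨fixingSubgroup (Perm α) Oᶜ, ?_, ?_, swap a b, ?_, sign_swap hab⟩
    · exact fun g hg => (mem_fixingSubgroup_iff _).mpr fun x hx => hfix g hg x hx
    · intro p hp hdvd
      haveI := Fact.mk hp
      obtain ⟨⟨σ, hσ⟩, hord⟩ := exists_prime_orderOf_dvd_card' p hdvd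
      rw [Subgroup.orderOf_mk] at hord
      have hσ2 : σ ^ 2 ∈ M := by
        refine hin _ (fun x hx => ?_) (by rw [map_pow, Int.units_sq])
        exact Perm.pow_apply_eq_self_of_apply_eq_self ((mem_fixingSubgroup_iff _).mp hσ x hx) 2
      have hdiv : p ∣ 2 * Nat.card M := by
        rw [← hord]
        apply orderOf_dvd_of_pow_eq_one
        rw [pow_mul]
        exact congrArg Subtype.val (pow_card_eq_one' (x := (⟨σ ^ 2, hσ2⟩ : M)))
      rcases hp.dvd_mul.mp hdiv with h | h
      · rw [(Nat.prime_dvd_prime_iff_eq hp Nat.prime_two).mp h]; exact h2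
      · exact hπ p hp h
    · exact (mem_fixingSubgroup_iff _).mpr fun x hx =>
        swap_apply_of_ne_of_ne (fun e => hx (e ▸ haO)) (fun e => hx (e ▸ hbO))
  · -- no element of order three
    set D : Set α := {a, b, c, d} with hD
    have hDO : D ⊆ O := by
      rintro x (rfl | rfl | rfl | rfl) <;> assumption
    have hmov : ∀ u ∈ D, ∀ v ∈ D, u ≠ v → ∃ e ∈ M, e u = v ∧ e v = u ∧ ∀ x, x ∉ D → e x = x := by
      have o1 : ∀ x, x ∉ D → (swap a b * swap c d) x = x := fun x hx =>
        p5 x (fun e => hx (by simp [hD, e])) (fun e => hx (by simp [hD, e]))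
          (fun e => hx (by simp [hD, e])) (fun e => hx (by simp [hD, e]))
      have o2 : ∀ x, x ∉ D → (swap a c * swap b d) x = x := fun x hx =>
        q5 x (fun e => hx (by simp [hD, e])) (fun e => hx (by simp [hD, e]))
          (fun e => hx (by simp [hD, e])) (fun e => hx (by simp [hD, e]))
      have o3 : ∀ x, x ∉ D → (swap a d * swap b c) x = x := fun x hx =>
        r5 x (fun e => hx (by simp [hD, e])) (fun e => hx (by simp [hD, e]))
          (fun e => hx (by simp [hD, e])) (fun e => hx (by simp [hD, e]))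
      rintro u (rfl | rfl | rfl | rfl) v (rfl | rfl | rfl | rfl) huv <;>
        first
        | exact absurd rfl huv
        | exact ⟨_, m1, p1, p2, o1⟩
        | exact ⟨_, m1, p2, p1, o1⟩
        | exact ⟨_, m1, p3, p4, o1⟩
        | exact ⟨_, m1, p4, p3, o1⟩
        | exact ⟨_, m2, q1, q2, o2⟩
        | exact ⟨_, m2, q2, q1, o2⟩
        | exact ⟨_, m2, q3, q4, o2⟩
        | exact ⟨_, m2, q4, q3, o2⟩
        | exact ⟨_, m3, r1, r2, o3⟩
        | exact ⟨_, m3, r2, r1, o3⟩
        | exact ⟨_, m3, r3, r4, o3⟩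
        | exact ⟨_, m3, r4, r3, o3⟩
    have hno3 : ∀ g ∈ M, ¬ 3 ∣ orderOf g := fun g hg h =>
      h3 (h.trans (by rw [← Subgroup.orderOf_mk g hg]; exact orderOf_dvd_natCard _))
    have hblkD : ∀ g ∈ M, g • D = D ∨ Disjoint (g • D) D := by
      intro g hg
      by_contra hcon
      push Not at hcon
      obtain ⟨hne, hnd⟩ := hcon
      obtain ⟨u, hu', hu⟩ := Set.not_disjoint_iff.mp hnd
      have hsz : (g • D).ncard = D.ncard := Set.ncard_smul_set g D
      obtain ⟨v, hv, hv'⟩ : ∃ v, v ∈ D ∧ v ∉ g • D := by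
        by_contra hh; push Not at hh
        exact hne (Set.eq_of_subset_of_ncard_le hh hsz.le (Set.toFinite _)).symm
      obtain ⟨x, hx', hx⟩ : ∃ x, x ∈ g • D ∧ x ∉ D := by
        by_contra hh; push Not at hh
        exact hne (Set.eq_of_subset_of_ncard_le hh hsz.ge (Set.toFinite _))
      obtain ⟨e, heM, eu, ev, eo⟩ := hmov u hu v hv (fun h => hv' (h ▸ hu'))
      rw [Set.mem_smul_set_iff_inv_smul_mem] at hu' hx'
      obtain ⟨f₀, hf₀M, fu, fx, fo⟩ := hmov _ hu' _ hx'
        ((g⁻¹ : Perm α).injective.ne (fun h => hx (h ▸ hu)))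
      set f : Perm α := g * f₀ * g⁻¹ with hf
      have hfu : f u = x := by
        simp only [hf, Perm.mul_apply]
        rw [show f₀ (g⁻¹ u) = g⁻¹ x from fu]; simp
      have hfx : f x = u := by
        simp only [hf, Perm.mul_apply]
        rw [show f₀ (g⁻¹ x) = g⁻¹ u from fx]; simp
      have hfv : f v = v := by
        simp only [hf, Perm.mul_apply]
        rw [fo (g⁻¹ v) (fun h => hv' (Set.mem_smul_set_iff_inv_smul_mem.mpr h))]; simp
      refine hno3 (e * f) (mul_mem heM (mul_mem (mul_mem hg hf₀M) (inv_mem hg)))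
        (three_dvd_orderOf (u := u) ?_ ?_)
      · simp only [pow_succ, pow_zero, one_mul, Perm.mul_apply]
        rw [hfu, eo x hx, hfx, eu, hfv, ev]
      · rw [Perm.mul_apply, hfu, eo x hx]
        exact fun h => hx (h ▸ hu)
    have hDeq : D = O := hprim D hDO a b (by simp [hD]) (by simp [hD]) hab hblkD
    -- then M is the four group, which has a block of size two
    have hfour : ∀ g ∈ M, g = 1 ∨ g = swap a b * swap c d ∨ g = swap a c * swap b d ∨
        g = swap a d * swap b c := by
      have base : ∀ g ∈ M, g a = a → g = 1 := by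
        intro g hg hga
        by_contra hne
        have hsub : g.support ⊆ {b, c, d} := by
          intro x hx
          rw [mem_support] at hx
          have hxD : x ∈ D := by
            by_contra h; exact hx (hfix g hg x (hDeq ▸ h))
          rcases hxD with rfl | rfl | rfl | rfl
          · exact absurd hga hx
          all_goals simp
        have hcard : g.support.card ≤ 3 := (Finset.card_le_card hsub).trans Finset.card_le_three
        have h0 : g.support.card ≠ 0 := by simpa using hne
        have h2' : g.support.card ≠ 2 := fun h => by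
          obtain ⟨x, y, hxy, rfl⟩ := card_support_eq_two.mp h
          have := hM hg
          rw [mem_alternatingGroup, sign_swap hxy] at this
          exact absurd this (by decide)
        have h1' := card_support_ne_one g
        have h3' : g.support.card = 3 := by omega
        exact hno3 g hg (by rw [(card_support_eq_three_iff.mp h3').orderOf])
      intro g hg
      have hga : g a ∈ D := hDeq ▸ hmemO g hg
      have hred : ∀ e ∈ M, e a = g a → g = e := fun e he hea => by
        have := base (e⁻¹ * g) (mul_mem (inv_mem he) hg) (by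
          rw [Perm.mul_apply, ← hea]; simp)
        exact (inv_mul_eq_one.mp this).symm
      rcases hga with h | h | h | h
      · exact Or.inl (base g hg h)
      · exact Or.inr (Or.inl (hred _ m1 (by rw [p1, h])))
      · exact Or.inr (Or.inr (Or.inl (hred _ m2 (by rw [q1, h]))))
      · exact Or.inr (Or.inr (Or.inr (hred _ m3 (by rw [r1, h]))))
    exfalso
    have hB := hblock {a, b} ⟨a, b, by simp, by simp, hab⟩ (fun g hg => by
      have himg : g • ({a, b} : Set α) = {g a, g b} := by
        rw [Set.smul_set_insert, Set.smul_set_singleton]; rfl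
      rcases hfour g hg with rfl | rfl | rfl | rfl <;> rw [himg]
      · exact Or.inl (by simp)
      · exact Or.inl (by rw [p1, p2, Set.pair_comm])
      · refine Or.inr ?_
        rw [q1, q3]
        simp [hac.symm, hbc.symm, had.symm, hbd.symm, Set.disjoint_left]
      · refine Or.inr ?_
        rw [r1, r3]
        simp [hac.symm, hbc.symm, had.symm, hbd.symm, Set.disjoint_left]) _ m2
    have h' : (swap a c * swap b d) a ∈ (swap a c * swap b d) • ({a, b} : Set α) :=
      Set.smul_mem_smul_set (by simp)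
    rw [hB, q1] at h'
    rcases h' with h' | h'
    · exact hac h'.symm
    · exact hbc h'.symm

end CfsgLib.HallAlt
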